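import Cfsg.Agent.H428.U2.Symp
import Cfsg.Agent.H103.GT.UTwoP
import Cfsg.Agent.S5787

/-!
# `StRes` (helper428), for `StU2P` of S5211
-/

set_option autoImplicit false
set_option linter.unusedSimpArgs false

namespace Cfsg.Agent.H428.U2

open Matrix

universe u v

/-- maximal subgroups above a proper subgroup -/
theorem exists_max {G : Type u} [Group G] [Finite G] {K L : Subgroup G} (hL : L ≤ K) (hne : L ≠ K) :
    ∃ H, Cfsg.Geo.IsMaximalIn K H ∧ L ≤ H := by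
  obtain ⟨H, ⟨hLH, hHK⟩, hmax⟩ := Set.exists_max_image {H : Subgroup G | L ≤ H ∧ H < K} (fun H => Nat.card H)
    (Set.toFinite _) ⟨L, le_refl L, lt_of_le_of_ne hL hne⟩
  refine ⟨H, ⟨hHK, fun M hM hMK => ?_⟩, hLH⟩
  by_cases h : M = K
  · exact Or.inr h
  · left
    exact (Subgroup.eq_of_le_of_card_ge hM (hmax M ⟨hLH.trans hM, lt_of_le_of_ne hMK h⟩)).symm

theorem exists_form (F : Type u) [Field F] : ∃ u v : Fin 2 ⊕ Fin 2 → F, Cfsg.sympForm 2 F u v ≠ 0 := by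
  refine ⟨Pi.single (Sum.inl 0) 1, Pi.single (Sum.inr 0) 1, ?_⟩
  unfold Cfsg.sympForm
  rw [Matrix.mulVec_single_one, single_one_dotProduct]
  show Matrix.J (Fin 2) F (Sum.inl 0) (Sum.inr 0) ≠ 0
  rw [Matrix.J, Matrix.fromBlocks_apply₁₂]
  simp

/-- (DEC) -/
def StDec : Prop :=
  ∀ {F : Type u} [Field F] {D : Fin 2 → Submodule F (Fin 2 ⊕ Fin 2 → F)}, Cfsg.Geo.IsMDecomposition 2 D →
    ∀ {p : ℕ}, p.Prime → p ≠ 2 → ∀ {x : GL (Fin 2 ⊕ Fin 2) F}, x ^ p = 1 →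
    ((x : Matrix (Fin 2 ⊕ Fin 2) (Fin 2 ⊕ Fin 2) F) - 1) ^ 4 = 0 → x ∈ Cfsg.Geo.decompositionStabilizer D →
    ((x : Matrix (Fin 2 ⊕ Fin 2) (Fin 2 ⊕ Fin 2) F) - 1) ^ 3 = 0

/-- (FLD) -/
def StFld : Prop :=
  ∀ {F : Type u} [Field F] {K : Subalgebra F (Matrix (Fin 2 ⊕ Fin 2) (Fin 2 ⊕ Fin 2) F)}, Cfsg.Geo.IsFieldSubalgebra 2 K →
    ∀ {p : ℕ}, p.Prime → p ≠ 2 → ∀ {x : GL (Fin 2 ⊕ Fin 2) F}, x ^ p = 1 →
    ((x : Matrix (Fin 2 ⊕ Fin 2) (Fin 2 ⊕ Fin 2) F) - 1) ^ 4 = 0 → x ∈ Cfsg.Geo.subalgebraNormalizer K →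
    ((x : Matrix (Fin 2 ⊕ Fin 2) (Fin 2 ⊕ Fin 2) F) - 1) ^ 3 = 0

theorem stRes_of (hD : StDec.{u}) (hK : StFld.{u}) : Cfsg.Agent.H103.GT.StRes.{u} := by
  intro F _ _ p _ hp hF L hL hne x hxL hxp hx4 hx3 hirr
  have hpp : p.Prime := Fact.out
  have hodd : Odd (Fintype.card F) := by
    rw [hF]
    exact hpp.odd_of_ne_two (by omega)
  have hp2 : p ≠ 2 := by omega
  have hfin : Finite (GL (Fin 2 ⊕ Fin 2) F) :=
    Finite.of_injective (fun g : GL (Fin 2 ⊕ Fin 2) F => (g : Matrix (Fin 2 ⊕ Fin 2) (Fin 2 ⊕ Fin 2) F)) Units.val_injective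
  obtain ⟨H, hH, hLH⟩ := exists_max hL hne
  refine ⟨H, hH, hLH, ?_⟩
  have hxH := hLH hxL
  rcases Cfsg.Agent.S5787.result hodd H hH with
    ⟨W, hW0, hWs, rfl⟩ | ⟨D, hDm, rfl⟩ | ⟨-, D, hDm, -, rfl⟩ | ⟨K, hKf, -, -, rfl⟩ | ⟨-, K, hKf, -, -, rfl⟩ |
    ⟨F₀, r, P, ζ, hr, hcard, -⟩ | ⟨p', R, -, -, -, habs, -, h32, h2, -, rfl⟩ | h
  · exfalso
    rcases hirr W (fun g hg v hv => by
      exact ((hLH hg).1 v).1 hv) with h | h
    · exact hW0 h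
    · obtain ⟨u, v, huv⟩ := exists_form F
      rw [h] at hWs
      exact huv (hWs u trivial v trivial)
  · exact absurd (hD hDm.decomp hpp hp2 hxp hx4 hxH.1) hx3
  · exact absurd (hD hDm hpp hp2 hxp hx4 hxH.1) hx3
  · exact absurd (hK hKf hpp hp2 hxp hx4 hxH.1) hx3
  · exact absurd (hK hKf hpp hp2 hxp hx4 hxH.1) hx3
  · exfalso
    rw [hF] at hcard
    rw [hcard] at hpp
    exact Nat.Prime.not_prime_pow hr.two_le hpp
  · exfalso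
    have hchar : CharP F p := charP_of_card_eq_prime hF
    have h1 := eq_one_of_symp hp h32 h2 habs hxp hxH.1
    apply hx3
    rw [h1, Units.val_one, sub_self, zero_pow (by norm_num)]
  · exact h

end Cfsg.Agent.H428.U2
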